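-- Team project OPARM (S5991, helper64), package [MINUSQ] (helper87):
-- the minus form is a nondegenerate quadratic form and is not of plus type.
import Mathlib
import Cfsg.Agent.Lib.Helper64.OParM.Defs
import Cfsg.Agent.Lib.Helper54.OHyp.EBlkEven
import Cfsg.Agent.Lib.Helper87.OPar.UTools

set_option autoImplicit false
open scoped MatrixGroups
open Matrix

namespace Cfsg.Agent.Lib.Helper87.OParM

open Cfsg.Agent.Lib.Helper23.OHyp Cfsg.Agent.Lib.Helper70.OPar Cfsg.Agent.Lib.Helper64.OParM
open Module

universe u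

/-- The minus form has no totally singular subspace of half the dimension. -/
theorem minus_not_plus {F : Type u} [Field F] (k : ℕ) (a b : F) (hab : Aniso a b) :
    ¬ Plus (Cfsg.quadFormMinus k F a b) ⊤ := by
  classical
  rintro ⟨U, -, hsing, hdim⟩
  have hU : finrank F U = k + 1 := by
    rw [finrank_top, Module.finrank_fintype_fun_eq_card] at hdim
    simp only [Fintype.card_sum, Fintype.card_fin] at hdim
    omega
  let πy : (MI k → F) →ₗ[F] (Fin k → F) :=
    { toFun := fun v j => v (Sum.inl (Sum.inr j))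
      map_add' := fun _ _ => rfl
      map_smul' := fun _ _ => rfl }
  let ιx : (Fin k → F) →ₗ[F] (MI k → F) :=
    { toFun := fun x => Sum.elim (Sum.elim x 0) 0
      map_add' := by
        intro x y
        funext i
        rcases i with (i | i) | i <;> simp
      map_smul' := by
        intro c x
        funext i
        rcases i with (i | i) | i <;> simp }
  let X₀ : Submodule F (Fin k → F) := U.comap ιx
  let Y : Submodule F (Fin k → F) := U.map πy
  have hA : finrank F Y + finrank F (U ⊓ LinearMap.ker πy : Submodule F (MI k → F)) =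
      finrank F U := Cfsg.Agent.Lib.Helper87.OPar.finrank_map_add_inf_ker πy U
  -- the kernel part lies in the image of `X₀`
  have hker : U ⊓ LinearMap.ker πy ≤ X₀.map ιx := by
    rintro v ⟨hvU, hvk⟩
    have hy : ∀ j, v (Sum.inl (Sum.inr j)) = 0 := fun j => congrFun (LinearMap.mem_ker.1 hvk) j
    have hQ := hsing v hvU
    have hz : v (Sum.inr 0) = 0 ∧ v (Sum.inr 1) = 0 := by
      apply hab
      have h0 : Cfsg.quadFormMinus k F a b v =
          v (Sum.inr 0) ^ 2 + a * v (Sum.inr 0) * v (Sum.inr 1) + b * v (Sum.inr 1) ^ 2 := by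
        simp [Cfsg.quadFormMinus, hy]
      rw [← h0]
      exact hQ
    have hv : ιx (fun i => v (Sum.inl (Sum.inl i))) = v := by
      funext i
      rcases i with (i | i) | i
      · rfl
      · exact (hy i).symm
      · fin_cases i
        · exact hz.1.symm
        · exact hz.2.symm
    refine ⟨fun i => v (Sum.inl (Sum.inl i)), ?_, hv⟩
    show ιx (fun i => v (Sum.inl (Sum.inl i))) ∈ U
    rw [hv]
    exact hvU
  have h1 : finrank F (U ⊓ LinearMap.ker πy : Submodule F (MI k → F)) ≤ finrank F X₀ :=
    le_trans (Submodule.finrank_mono hker) (Submodule.finrank_map_le ιx X₀)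
  -- `Y` is orthogonal to `X₀` for the dot product
  let bd : LinearMap.BilinForm F (Fin k → F) := Matrix.toBilin' (1 : Matrix (Fin k) (Fin k) F)
  have hbd : ∀ x y : Fin k → F, bd x y = x ⬝ᵥ y := by
    intro x y
    show Matrix.toBilin' (1 : Matrix (Fin k) (Fin k) F) x y = _
    rw [Matrix.toBilin'_apply', Matrix.one_mulVec]
  have hkerbd : LinearMap.ker bd = ⊥ := by
    rw [LinearMap.ker_eq_bot']
    intro x hx
    apply dotProduct_eq_zero
    intro w
    rw [← hbd, hx]
    rfl
  have horth : finrank F X₀ + finrank F (bd.orthogonal X₀) = finrank F (Fin k → F) :=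
    Cfsg.Agent.Lib.Helper87.OPar.finrank_add_orth bd hkerbd X₀
  have hYorth : Y ≤ bd.orthogonal X₀ := by
    rintro _ ⟨u, hu, rfl⟩ x hx
    show bd x (πy u) = 0
    rw [hbd]
    have hxU : ιx x ∈ U := hx
    have h3 := hsing _ (U.add_mem hxU hu)
    have h4 := hsing u hu
    have h5 : Cfsg.quadFormMinus k F a b (ιx x + u) =
        x ⬝ᵥ πy u + Cfsg.quadFormMinus k F a b u := by
      simp only [Cfsg.quadFormMinus, dotProduct, Pi.add_apply]
      have e1 : ∀ i : Fin k, (ιx x) (Sum.inl (Sum.inl i)) = x i := fun i => rfl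
      have e2 : ∀ i : Fin k, (ιx x) (Sum.inl (Sum.inr i)) = 0 := fun i => rfl
      have e3 : ∀ i : Fin 2, (ιx x) (Sum.inr i) = 0 := fun i => rfl
      have e4 : ∀ i : Fin k, πy u i = u (Sum.inl (Sum.inr i)) := fun i => rfl
      simp only [e1, e2, e3, e4, zero_add, add_mul, Finset.sum_add_distrib]
      ring
    rw [h5, h4, add_zero] at h3
    exact h3
  have h2 : finrank F Y ≤ finrank F (bd.orthogonal X₀) := Submodule.finrank_mono hYorth
  have h6 : finrank F (Fin k → F) = k := by simp
  have h7 : k + 1 ≤ finrank F X₀ + finrank F (bd.orthogonal X₀) := by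
    calc k + 1 = finrank F U := hU.symm
      _ = finrank F Y + finrank F (U ⊓ LinearMap.ker πy : Submodule F (MI k → F)) := hA.symm
      _ ≤ finrank F (bd.orthogonal X₀) + finrank F X₀ := Nat.add_le_add h2 h1
      _ = finrank F X₀ + finrank F (bd.orthogonal X₀) := Nat.add_comm _ _
  rw [horth, h6] at h7
  omega

/-- [MINUSQ] -/
theorem pkgMinusQ : PkgMinusQ.{u} := by
  intro F _ h2 k a b hab
  refine ⟨Cfsg.Agent.Lib.Helper54.OHyp.quadFormMinus_nondeg h2 k a b ?_, minus_not_plus k a b hab⟩
  intro h
  have h1 := hab (-a) 2 (by linear_combination h)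
  exact h2 h1.2

end Cfsg.Agent.Lib.Helper87.OParM
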