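-- Team project OPARM (S5991, helper64), package [EXE0M] (helper87):
-- minus type, `i` even, `i ∣ 2k+2` with odd quotient: a fixed-point-free isometry of order `r`
-- (from the landed OCLS existence theorem `Helper14.OCls.exEvenMinus`).
import Mathlib
import Cfsg.Agent.Lib.Helper64.OParM.Defs
import Cfsg.Agent.Lib.Helper14.OCls.Final

set_option autoImplicit false
open scoped MatrixGroups
open Matrix

namespace Cfsg.Agent.Lib.Helper87.OParM

open Cfsg.Agent.Lib.Helper23.OHyp Cfsg.Agent.Lib.Helper70.OPar Cfsg.Agent.Lib.Helper64.OParM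
open Polynomial

universe u

/-- [EXE0M] -/
theorem pkgExe0M : PkgExe0M.{u} := by
  intro F _ _ h2 k r a b hab hr hr2 hrq hc hie hodd
  classical
  obtain ⟨p, hp⟩ := CharP.exists F
  haveI : Fact p.Prime := ⟨CharP.char_is_prime F p⟩
  haveI : Fact r.Prime := ⟨hr⟩
  have hpq : p ∣ Fintype.card F := by
    obtain ⟨f, -, hf⟩ := FiniteField.card F p
    rw [hf]
    exact dvd_pow_self p (PNat.ne_zero f)
  have hrp : r ≠ p := fun h => hrq (h ▸ hpq)
  have hi' : ordI (Fintype.card F) r = orderOf ((Fintype.card F : ℕ) : ZMod r) := rfl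
  have hidvd : ordI (Fintype.card F) r ∣ r - 1 := by
    rw [hi']
    apply orderOf_dvd_of_pow_eq_one
    apply ZMod.pow_card_sub_one_eq_one
    rw [Ne, ZMod.natCast_eq_zero_iff]
    exact hrq
  obtain ⟨S, hS, hScard, hrF, -, hipos, htpos, dg, -, -, -, -, hself⟩ :=
    Cfsg.Agent.Lib.Helper14.OCls.exists_setup (F := F) (p := p) (q := Fintype.card F) rfl r
      (ordI (Fintype.card F) r) ((r - 1) / ordI (Fintype.card F) r) hr hr2 hrp hi'
      (Nat.div_mul_cancel hidvd)
  have hSne : S.Nonempty := by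
    rw [← Finset.card_pos, hScard]
    exact htpos
  obtain ⟨π₀, hπ₀⟩ := hSne
  have hcc : cc (Fintype.card F) r = ordI (Fintype.card F) r := by
    unfold cc
    rw [if_pos hie]
  have hidvd2 : ordI (Fintype.card F) r ∣ 2 * k + 2 := by
    rw [← hcc]
    exact Nat.dvd_of_mod_eq_zero hc
  have his : ordI (Fintype.card F) r * ((2 * k + 2) / ordI (Fintype.card F) r) = 2 * k + 2 :=
    Nat.mul_div_cancel' hidvd2
  let af : S → ℕ := fun π => if π = ⟨π₀, hπ₀⟩ then (2 * k + 2) / ordI (Fintype.card F) r else 0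
  have haf : ∑ π, af π = (2 * k + 2) / ordI (Fintype.card F) r := by
    simp [af]
  obtain ⟨g, hg, hiso, hχ⟩ := Cfsg.Agent.Lib.Helper14.OCls.exEvenMinus (F := F) p S r
    (ordI (Fintype.card F) r) hS hr hr2 hrF hi' hie (hself hie) k a b hab af
    (by rw [haf, his]) (by intro _; rw [haf]; exact hodd)
  have heval : ∀ π ∈ S, π.eval 1 ≠ 0 := by
    intro π hπ h0
    have hdvd : (X - C 1 : F[X]) ∣ π := Polynomial.dvd_iff_isRoot.2 h0
    have hirr := hS.irred π hπ
    have hirr1 : Irreducible (X - C 1 : F[X]) := Polynomial.irreducible_X_sub_C 1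
    have hassoc : Associated (X - C 1 : F[X]) π := hirr1.associated_of_dvd hirr hdvd
    have heq : (X - C 1 : F[X]) = π :=
      Polynomial.eq_of_monic_of_associated (Polynomial.monic_X_sub_C 1) (hS.monic π hπ) hassoc
    exact hS.notMem (heq ▸ hπ)
  have hdet : (g - 1).det ≠ 0 := by
    intro hdet
    have h1 : g.charpoly.eval 1 = 0 := by
      rw [Matrix.eval_charpoly]
      have h3 : (Matrix.scalar (MI k) (1 : F) - g) = -(g - 1) := by simp
      rw [h3, Matrix.det_neg, hdet, mul_zero]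
    rw [hχ, haf, his, Nat.sub_self] at h1
    simp only [Cfsg.Agent.Lib.Helper40.PrimeOrderGL.chi, pow_zero, one_mul] at h1
    rw [Polynomial.eval_prod] at h1
    obtain ⟨π, -, hπ⟩ := Finset.prod_eq_zero_iff.1 h1
    rw [Polynomial.eval_pow] at hπ
    exact pow_ne_zero _ (heval π.1 π.2) hπ
  have hxr : (Units.ofPowEqOne g r hg hr.ne_zero : GL (MI k) F) ^ r = 1 :=
    Units.pow_ofPowEqOne hg hr.ne_zero
  have hxdet : IsUnit (((Units.ofPowEqOne g r hg hr.ne_zero : GL (MI k) F) :
      Matrix (MI k) (MI k) F) - 1).det := isUnit_iff_ne_zero.2 hdet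
  refine ⟨Units.ofPowEqOne g r hg hr.ne_zero, ?_, ?_, ?_⟩
  · intro v _
    exact hiso v
  · apply orderOf_eq_prime hxr
    intro hx1
    rw [hx1, Units.val_one, sub_self] at hxdet
    haveI : Nonempty (MI k) := ⟨Sum.inr 0⟩
    rw [Matrix.det_zero] at hxdet
    exact not_isUnit_zero hxdet
  · have hker : fixSp ((Units.ofPowEqOne g r hg hr.ne_zero : GL (MI k) F) :
        Matrix (MI k) (MI k) F) = ⊥ := by
      unfold fixSp
      have h1 : ∀ N : Matrix (MI k) (MI k) F, Matrix.toLin' N - 1 = Matrix.toLin' (N - 1) := by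
        intro N
        rw [map_sub, Matrix.toLin'_one]
        rfl
      rw [h1, LinearMap.ker_eq_bot]
      have hu := (Matrix.isUnit_iff_isUnit_det _).2 hxdet
      exact Matrix.mulVec_injective_of_isUnit hu
    rw [hker, finrank_bot]

end Cfsg.Agent.Lib.Helper87.OParM
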